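import Cfsg.Agent.H768.SelfFi
import Cfsg.Agent.H768.SelfTits
import Cfsg.Agent.H799.Glue
import Cfsg.Agent.ClosedRed.Inst

/-!
# Simple 2-fusion systems: `Fi22`, `Fi23`, the Tits group (helper768)

* `isSimple_of_selfN` : `ClosedRow G`, self-normalising Sylow 2-subgroups;
* `fi22`, `fi23`, `tits` : the 2-fusion system is simple.
-/

set_option autoImplicit false

namespace Cfsg.Agent.H768.FusRows

open Cfsg Subgroup Cfsg.Agent.QTNorm Cfsg.Agent.ClosedTwo

universe u

theorem isSimple_of_selfN {G : Type u} [Group G] [Finite G] (hc : ClosedRow G) (h : SelfN G)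
    (h2 : 2 ∣ Nat.card G) (S : Sylow 2 G) : (groupFusionSystem (S : Subgroup G)).IsSimple 2 := by
  have hf : Fact (Nat.Prime 2) := ⟨Nat.prime_two⟩
  exact H799.isSimple_of_self hc S (S.ne_bot_of_dvd_card h2) (h S)

theorem selfN_fi23 {G : Type u} [Group G] (h : Spor.IsoFi23 G) : SelfN G := by
  obtain ⟨e⟩ := h
  have := Cfsg.Agent.KFacts.FiTTh.BasInv.finite
  exact SelfFi.selfN_fi23.congr e.symm

theorem selfN_fi22 {G : Type u} [Group G] [Finite G] (h : Spor.IsoFi22 G) : SelfN G := by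
  obtain ⟨e⟩ := h
  have : Finite Spor.Fi22 := Finite.of_equiv G e.toEquiv
  exact SelfFi.selfN_fi22.congr e.symm

/-- **`Fi23`** -/
theorem fi23 {G : Type u} [Group G] [Finite G] (h : Spor.IsoFi23 G) (S : Sylow 2 G) :
    (groupFusionSystem (S : Subgroup G)).IsSimple 2 := by
  refine isSimple_of_selfN (ClosedRed.SporAll.fi23 h) (selfN_fi23 h) ?_ S
  obtain ⟨e⟩ := h
  rw [Nat.card_congr e.toEquiv, Cfsg.Agent.Fischer.Fi23Simple.card_Fi23]
  norm_num

/-- **`Fi22`** -/
theorem fi22 {G : Type u} [Group G] [Finite G] (h : Spor.IsoFi22 G) (S : Sylow 2 G) :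
    (groupFusionSystem (S : Subgroup G)).IsSimple 2 := by
  refine isSimple_of_selfN (ClosedRed.of_closedRow h Cfsg.Agent.FooteRow.FiFinal.closedRow) (selfN_fi22 h) ?_ S
  obtain ⟨e⟩ := h
  rw [Nat.card_congr e.toEquiv, Cfsg.Agent.Fischer.Fi22Order.card_values.1]
  norm_num

/-- **the Tits group** -/
theorem tits {G : Type u} [Group G] [Finite G] (h : Lie.IsoTits G) (S : Sylow 2 G) :
    (groupFusionSystem (S : Subgroup G)).IsSimple 2 := by
  have hs : IsSimpleGroup G := Cfsg.Agent.Omega.TwoF.TitsAut.simple_iso h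
  refine isSimple_of_selfN (ClosedRed.Inst.tits (Cfsg.Agent.Omega.TwoF.TitsAut.not_comm_iso h) h)
    (SelfTits.selfN_tits h) ?_ S
  rw [Cfsg.Agent.Omega.TwoF.TitsAut.card_iso h]
  norm_num

end Cfsg.Agent.H768.FusRows
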